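import Cfsg.Agent.H732.VZ.Close
import Cfsg.Agent.H730.OZ.Top

/-!
# One class of zeros and tori containing a Sylow subgroup (helper956, S4842)

`Tst T` : the elements of `T` with centralizer `T`.

* `dvd_cases_torus` : `χ` vanishes on exactly one class `x ^ G`, `|G : T|` prime to `r` and `r ∣ χ(1)`:
  `(r² - 1) |Tst| |T| ≤ r² |N(T)|` or `(r² - 1) |Tst| |C(x)| ≤ |N(T)|`;
* `not_dvd_of_torus` : `r ∤ χ(1)` if `Tst` is large;
* `normalizer_eq` : `N(T) = N(R)` for `T = C_G(R)` abelian;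
* `dvd_of_kaw` : `r ∤ χ(1)`, no `p`-element `≠ 1` commutes with `R`: `r ∣ e p ^ m - 1`;
* `cong_of_torus` : `Cong p r 0 G`.
-/

set_option autoImplicit false

namespace Cfsg.Agent.H956.OZ.Loc

open Cfsg Cfsg.Agent.Characters Finset Cfsg.Agent.H732.VZ Cfsg.Agent.H686.CharKit
open Cfsg.Agent.H730.OZ (OneZero pSet Kaw Cong)

universe u

variable {G : Type u} [Group G]

/-- The elements of `T` with centralizer `T`. -/
def Tst (T : Subgroup G) : Set G := {t | t ∈ T ∧ Subgroup.centralizer ({t} : Set G) = T}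

theorem mem_Tst {T : Subgroup G} {t : G} : t ∈ Tst T ↔ t ∈ T ∧ Subgroup.centralizer ({t} : Set G) = T := Iff.rfl

theorem mem_iff_of_Tst {T : Subgroup G} {t : G} (ht : t ∈ Tst T) (y : G) : y ∈ T ↔ y * t = t * y := by
  conv_lhs => rw [← ht.2]
  exact Subgroup.mem_centralizer_singleton_iff

theorem mem_normalizer_of_conj {T : Subgroup G} {t t' b : G} (ht : t ∈ Tst T) (ht' : t' ∈ Tst T)
    (hb : b * t * b⁻¹ = t') : b ∈ Subgroup.normalizer (T : Set G) := by
  rw [Subgroup.mem_normalizer_iff]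
  intro y
  show y ∈ T ↔ b * y * b⁻¹ ∈ T
  rw [mem_iff_of_Tst ht, mem_iff_of_Tst ht', ← hb]
  constructor
  · intro h
    calc b * y * b⁻¹ * (b * t * b⁻¹) = b * (y * t) * b⁻¹ := by group
      _ = b * (t * y) * b⁻¹ := by rw [h]
      _ = b * t * b⁻¹ * (b * y * b⁻¹) := by group
  · intro h
    calc y * t = b⁻¹ * (b * y * b⁻¹ * (b * t * b⁻¹)) * b := by group
      _ = b⁻¹ * (b * t * b⁻¹ * (b * y * b⁻¹)) * b := by rw [h]
      _ = t * y := by group

theorem conj_mem_Tst {T : Subgroup G} {t b : G} (ht : t ∈ Tst T) (hb : b ∈ Subgroup.normalizer (T : Set G)) :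
    b * t * b⁻¹ ∈ Tst T := by
  have hb' := Subgroup.mem_normalizer_iff.1 hb
  refine ⟨(hb' t).1 ht.1, ?_⟩
  ext y
  rw [Subgroup.mem_centralizer_singleton_iff]
  have h1 : y ∈ T ↔ b⁻¹ * y * b ∈ T := by
    rw [hb' (b⁻¹ * y * b)]
    have : b * (b⁻¹ * y * b) * b⁻¹ = y := by group
    rw [this]
  rw [h1, mem_iff_of_Tst ht]
  constructor
  · intro h
    calc b⁻¹ * y * b * t = b⁻¹ * (y * (b * t * b⁻¹)) * b := by group
      _ = b⁻¹ * (b * t * b⁻¹ * y) * b := by rw [h]
      _ = t * (b⁻¹ * y * b) := by group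
  · intro h
    calc y * (b * t * b⁻¹) = b * (b⁻¹ * y * b * t) * b⁻¹ := by group
      _ = b * (t * (b⁻¹ * y * b)) * b⁻¹ := by rw [h]
      _ = b * t * b⁻¹ * y := by group

section

variable [Fintype G]

open scoped Classical in
/-- The elements conjugate to an element of `Tst T`. -/
noncomputable def YT (T : Subgroup G) : Finset G := univ.filter fun g : G => ∃ a : G, a⁻¹ * g * a ∈ Tst T

theorem mem_YT {T : Subgroup G} {g : G} : g ∈ YT T ↔ ∃ a : G, a⁻¹ * g * a ∈ Tst T := by simp [YT]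

theorem card_YT (T : Subgroup G) :
    (YT T).card * Nat.card (Subgroup.normalizer (T : Set G)) = Nat.card (Tst T) * Nat.card G := by
  classical
  have := Fintype.ofFinite (Subgroup.normalizer (T : Set G))
  set S : Finset G := univ.filter fun t => t ∈ Tst T with hS
  have hSc : Nat.card (Tst T) = S.card := by
    rw [hS, ← Fintype.card_subtype, ← Nat.card_eq_fintype_card]
  have h1 : ((univ : Finset G) ×ˢ S).card = ∑ g ∈ YT T,
      (((univ : Finset G) ×ˢ S).filter fun p => p.1 * p.2 * p.1⁻¹ = g).card := by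
    apply Finset.card_eq_sum_card_fiberwise
    rintro ⟨a, t⟩ ht
    simp only [Finset.coe_product, Set.mem_prod, Finset.mem_coe, hS, mem_filter, mem_univ, true_and] at ht
    rw [Finset.mem_coe, mem_YT]
    refine ⟨a, ?_⟩
    have : a⁻¹ * (a * t * a⁻¹) * a = t := by group
    rw [this]
    exact ht
  have h2 : ∀ g ∈ YT T, (((univ : Finset G) ×ˢ S).filter fun p => p.1 * p.2 * p.1⁻¹ = g).card =
      Nat.card (Subgroup.normalizer (T : Set G)) := by
    intro g hg
    obtain ⟨a, ha⟩ := mem_YT.1 hg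
    rw [Nat.card_eq_fintype_card, ← Finset.card_univ]
    symm
    refine Finset.card_bij (fun b _ => (a * (b : G)⁻¹, b * (a⁻¹ * g * a) * (b : G)⁻¹)) ?_ ?_ ?_
    · intro b _
      simp only [mem_filter, Finset.mem_product, mem_univ, true_and, hS]
      exact ⟨conj_mem_Tst ha b.2, by group⟩
    · intro b _ c _ hbc
      have h3 : a * (b : G)⁻¹ = a * (c : G)⁻¹ := congrArg Prod.fst hbc
      exact Subtype.ext (inv_injective (mul_left_cancel h3))
    · rintro ⟨c, t⟩ hct
      simp only [mem_filter, Finset.mem_product, mem_univ, true_and, hS] at hct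
      obtain ⟨ht, hct⟩ := hct
      have h3 : (c⁻¹ * a) * (a⁻¹ * g * a) * (c⁻¹ * a)⁻¹ = t := by rw [← hct]; group
      refine ⟨⟨c⁻¹ * a, mem_normalizer_of_conj ha ht h3⟩, mem_univ _, ?_⟩
      refine Prod.ext ?_ h3
      show a * (c⁻¹ * a)⁻¹ = c
      group
  rw [Finset.sum_congr rfl h2, Finset.sum_const, smul_eq_mul, Finset.card_product, Finset.card_univ,
    ← Nat.card_eq_fintype_card, ← hSc, mul_comm] at h1
  exact h1.symm

theorem gal_YT (T : Subgroup G) : H695.OneZero.Gal (YT T) := by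
  intro g hg k hk
  rw [mem_YT] at hg ⊢
  obtain ⟨a, ha⟩ := hg
  refine ⟨a, ?_⟩
  have h1 : a⁻¹ * g ^ k * a = (a⁻¹ * g * a) ^ k := by
    have := conj_pow (i := k) (a := a⁻¹) (b := g)
    rw [inv_inv] at this
    exact this.symm
  rw [h1]
  set t := a⁻¹ * g * a with ht
  obtain ⟨m, hm⟩ := exists_pow_eq_self_of_coprime (x := t) (n := k) (hk.coprime_dvd_right (orderOf_dvd_natCard t))
  refine ⟨T.pow_mem ha.1 k, ?_⟩
  rw [← ha.2]
  ext y
  rw [Subgroup.mem_centralizer_singleton_iff, Subgroup.mem_centralizer_singleton_iff]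
  constructor
  · intro h
    have h2 : Commute y ((t ^ k) ^ m) := (show Commute y (t ^ k) from h).pow_right m
    rw [hm] at h2
    exact h2
  · intro h
    exact ((show Commute y t from h).pow_right k)

/-- **The local lemma.** -/
theorem dvd_cases_torus {χ : IrrCharacter G} {x : G} (h : One χ x) {r : ℕ} (hr : r.Prime) {T : Subgroup G}
    (hT : ¬ r ∣ T.index) (hd : r ∣ charDegree (χ : G → ℂ)) :
    (r ^ 2 - 1) * Nat.card (Tst T) * Nat.card T ≤ r ^ 2 * Nat.card (Subgroup.normalizer (T : Set G)) ∨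
      (r ^ 2 - 1) * Nat.card (Tst T) * Nat.card (Subgroup.centralizer ({x} : Set G)) ≤
        Nat.card (Subgroup.normalizer (T : Set G)) := by
  classical
  have hG : 0 < Nat.card G := Nat.card_pos
  set N := Nat.card (Subgroup.normalizer (T : Set G)) with hN
  have hYN := card_YT T
  rw [← hN] at hYN
  have hz := card_zeros h
  set z := (univ.filter fun g : G => (χ : G → ℂ) g = 0).card with hzdef
  have hint : ∀ g ∈ YT T, IsIntegral ℤ ((χ : G → ℂ) g / r) := by
    intro g hg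
    refine isIntegral_div χ hr hd ?_
    obtain ⟨a, ha⟩ := mem_YT.1 hg
    have h1 : (Subgroup.centralizer ({g} : Set G)).index = (Subgroup.centralizer ({a⁻¹ * g * a} : Set G)).index := by
      rw [CentralCharacter.index_centralizer_eq_card, CentralCharacter.index_centralizer_eq_card]
      refine Nat.card_congr (Equiv.subtypeEquivRight fun y => ?_)
      have hc : IsConj g (a⁻¹ * g * a) := isConj_iff.2 ⟨a⁻¹, by rw [inv_inv]⟩
      exact ⟨fun h => hc.symm.trans h, fun h => hc.trans h⟩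
    rw [h1, ha.2]
    exact hT
  have hr2 : 1 ≤ r ^ 2 := Nat.one_le_pow _ _ hr.pos
  by_cases hx : x ∈ YT T
  · left
    -- the zeros lie in `YT`
    have hsub : (univ.filter fun g : G => (χ : G → ℂ) g = 0) ⊆ YT T := by
      intro g hg
      obtain ⟨c, hc⟩ := isConj_iff.1 (h.uniq g (mem_filter.1 hg).2)
      obtain ⟨a, ha⟩ := mem_YT.1 hx
      refine mem_YT.2 ⟨c * a, ?_⟩
      have : (c * a)⁻¹ * g * (c * a) = a⁻¹ * x * a := by rw [← hc]; group
      rw [this]
      exact ha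
    have hgal : H695.OneZero.Gal (YT T \ univ.filter fun g : G => (χ : G → ℂ) g = 0) := by
      intro g hg k hk
      rw [mem_sdiff] at hg ⊢
      refine ⟨gal_YT T g hg.1 k hk, ?_⟩
      intro h0
      apply hg.2
      obtain ⟨σ, hσ⟩ := GaloisBasic.exists_ringEquiv_of_coprime (G := G) hk
      have h1 := hσ _ (Core.isIrr_isCharacter χ.2) g
      rw [(mem_filter.1 h0).2] at h1
      exact mem_filter.2 ⟨mem_univ _, by simpa using h1⟩
    have hex := excess χ hgal (fun g hg h0 => (mem_sdiff.1 hg).2 (mem_filter.2 ⟨mem_univ _, h0⟩)) hr.pos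
      (fun g hg => hint g (mem_sdiff.1 hg).1)
    rw [Finset.card_sdiff_of_subset hsub, ← hzdef] at hex
    have hle : z ≤ (YT T).card := Finset.card_le_card hsub
    obtain ⟨y, hy⟩ := Nat.exists_eq_add_of_le hle
    rw [hy, Nat.add_sub_cancel_left] at hex
    -- `|C(x)| = |T|`
    have hcx : Nat.card (Subgroup.centralizer ({x} : Set G)) = Nat.card T := by
      obtain ⟨a, ha⟩ := mem_YT.1 hx
      rw [← ha.2]
      refine Nat.card_congr ((MulAut.conj a⁻¹).toEquiv.subtypeEquiv fun y => ?_)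
      rw [Subgroup.mem_centralizer_singleton_iff, Subgroup.mem_centralizer_singleton_iff]
      show y * x = x * y ↔ (a⁻¹ * y * a⁻¹⁻¹) * (a⁻¹ * x * a) = (a⁻¹ * x * a) * (a⁻¹ * y * a⁻¹⁻¹)
      rw [inv_inv]
      constructor
      · intro h
        calc (a⁻¹ * y * a) * (a⁻¹ * x * a) = a⁻¹ * (y * x) * a := by group
          _ = a⁻¹ * (x * y) * a := by rw [h]
          _ = (a⁻¹ * x * a) * (a⁻¹ * y * a) := by group
      · intro h
        calc y * x = a * ((a⁻¹ * y * a) * (a⁻¹ * x * a)) * a⁻¹ := by group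
          _ = a * ((a⁻¹ * x * a) * (a⁻¹ * y * a)) * a⁻¹ := by rw [h]
          _ = x * y := by group
    rw [hcx] at hz
    -- `(r² - 1) |YT| ≤ r² z`
    have h1 : (r ^ 2 - 1) * (YT T).card ≤ r ^ 2 * z := by
      obtain ⟨s, hs⟩ := Nat.exists_eq_add_of_le hr2
      rw [hs] at hex ⊢
      rw [Nat.add_sub_cancel_left, hy]
      nlinarith
    have h2 : ((r ^ 2 - 1) * Nat.card (Tst T) * Nat.card T) * Nat.card G ≤ (r ^ 2 * N) * Nat.card G := by
      calc ((r ^ 2 - 1) * Nat.card (Tst T) * Nat.card T) * Nat.card G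
          = (r ^ 2 - 1) * (Nat.card (Tst T) * Nat.card G) * Nat.card T := by ring
        _ = ((r ^ 2 - 1) * (YT T).card) * (N * Nat.card T) := by rw [← hYN]; ring
        _ ≤ (r ^ 2 * z) * (N * Nat.card T) := Nat.mul_le_mul_right _ h1
        _ = (r ^ 2 * N) * (z * Nat.card T) := by ring
        _ = (r ^ 2 * N) * Nat.card G := by rw [hz]
    exact Nat.le_of_mul_le_mul_right h2 hG
  · right
    have hnz : ∀ g ∈ YT T, (χ : G → ℂ) g ≠ 0 := by
      intro g hg h0
      apply hx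
      obtain ⟨c, hc⟩ := isConj_iff.1 (h.uniq g h0)
      obtain ⟨a, ha⟩ := mem_YT.1 hg
      refine mem_YT.2 ⟨c⁻¹ * a, ?_⟩
      have : (c⁻¹ * a)⁻¹ * x * (c⁻¹ * a) = a⁻¹ * g * a := by rw [← hc]; group
      rw [this]
      exact ha
    have hex := excess χ (gal_YT T) hnz hr.pos hint
    rw [← hzdef] at hex
    have h1 : (r ^ 2 - 1) * (YT T).card ≤ z := by
      obtain ⟨s, hs⟩ := Nat.exists_eq_add_of_le hr2
      rw [hs] at hex ⊢
      rw [Nat.add_sub_cancel_left]
      nlinarith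
    set c := Nat.card (Subgroup.centralizer ({x} : Set G)) with hc
    have h2 : ((r ^ 2 - 1) * Nat.card (Tst T) * c) * Nat.card G ≤ N * Nat.card G := by
      calc ((r ^ 2 - 1) * Nat.card (Tst T) * c) * Nat.card G
          = (r ^ 2 - 1) * (Nat.card (Tst T) * Nat.card G) * c := by ring
        _ = ((r ^ 2 - 1) * (YT T).card) * (N * c) := by rw [← hYN]; ring
        _ ≤ z * (N * c) := Nat.mul_le_mul_right _ h1
        _ = N * (z * c) := by ring
        _ = N * Nat.card G := by rw [hz]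
    exact Nat.le_of_mul_le_mul_right h2 hG

end

/-- `r` does not divide the degree if `Tst T` is large. `c ≤ |C(x)|` (`c = 1` is always possible). -/
theorem not_dvd_of_torus [Finite G] {χ : IrrCharacter G} {x : G} (h : One χ x) {r : ℕ} (hr : r.Prime) {T : Subgroup G}
    (hT : ¬ r ∣ T.index) {w c n : ℕ} (hw : Nat.card (Subgroup.normalizer (T : Set G)) = w * Nat.card T)
    (hc : c ≤ Nat.card (Subgroup.centralizer ({x} : Set G))) (hn : n ≤ Nat.card (Tst T))
    (h1 : r ^ 2 * w < (r ^ 2 - 1) * n) (h2 : w * Nat.card T < (r ^ 2 - 1) * n * c) :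
    ¬ r ∣ charDegree (χ : G → ℂ) := by
  intro hd
  have := Fintype.ofFinite G
  have hT0 : 0 < Nat.card T := Nat.card_pos
  rcases dvd_cases_torus h hr hT hd with h3 | h3
  · rw [hw, ← mul_assoc] at h3
    have h4 := Nat.le_of_mul_le_mul_right h3 hT0
    have h5 : (r ^ 2 - 1) * n ≤ (r ^ 2 - 1) * Nat.card (Tst T) := Nat.mul_le_mul_left _ hn
    omega
  · rw [hw] at h3
    have h5 : (r ^ 2 - 1) * n * c ≤ (r ^ 2 - 1) * Nat.card (Tst T) * Nat.card (Subgroup.centralizer ({x} : Set G)) :=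
      Nat.mul_le_mul (Nat.mul_le_mul_left _ hn) hc
    omega

/-- `C_G(R)` is the centralizer of the abelian Sylow subgroup `R`: its index is prime to `r`. -/
theorem not_dvd_index [Finite G] {r : ℕ} [hr : Fact r.Prime] (R : Sylow r G) {T : Subgroup G}
    (hRT : (R : Subgroup G) ≤ T) : ¬ r ∣ T.index := fun h =>
  R.not_dvd_index (h.trans (Subgroup.index_dvd_of_le hRT))

/-- `N(T) = N(R)` for `T = C_G(R)` abelian. -/
theorem normalizer_eq [Finite G] {r : ℕ} [hr : Fact r.Prime] (R : Sylow r G) {T : Subgroup G}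
    (hT : T = Subgroup.centralizer ((R : Subgroup G) : Set G)) (hab : ∀ a ∈ T, ∀ b ∈ T, a * b = b * a)
    (hRT : (R : Subgroup G) ≤ T) :
    Subgroup.normalizer (T : Set G) = Subgroup.normalizer ((R : Subgroup G) : Set G) := by
  apply le_antisymm
  · intro b hb
    have hb' := Subgroup.mem_normalizer_iff.1 hb
    have key : ∀ c : G, (∀ x ∈ T, c * x * c⁻¹ ∈ T) → ∀ x ∈ (R : Subgroup G), c * x * c⁻¹ ∈ (R : Subgroup G) := by
      intro c hc x hx
      have h1 := hc x (hRT hx)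
      have hle : Subgroup.zpowers (c * x * c⁻¹) ≤ Subgroup.normalizer ((R : Subgroup G) : Set G) := by
        rw [Subgroup.zpowers_le]
        refine Subgroup.mem_normalizer_iff.2 fun y => ?_
        have h2 : ∀ y ∈ (R : Subgroup G), (c * x * c⁻¹) * y * (c * x * c⁻¹)⁻¹ = y := by
          intro y hy
          rw [hab _ h1 _ (hRT hy)]
          group
        constructor
        · intro hy
          show (c * x * c⁻¹) * y * (c * x * c⁻¹)⁻¹ ∈ (R : Subgroup G)
          rw [h2 y hy]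
          exact hy
        · intro hy
          have hy' : (c * x * c⁻¹) * y * (c * x * c⁻¹)⁻¹ ∈ (R : Subgroup G) := hy
          have h3 := h2 _ hy'
          have h4 : y = (c * x * c⁻¹) * y * (c * x * c⁻¹)⁻¹ := by
            have h5 := congrArg (fun w => (c * x * c⁻¹)⁻¹ * w * (c * x * c⁻¹)) h3
            calc y = (c * x * c⁻¹)⁻¹ * ((c * x * c⁻¹) * y * (c * x * c⁻¹)⁻¹) * (c * x * c⁻¹) := by group
              _ = (c * x * c⁻¹)⁻¹ * ((c * x * c⁻¹) * ((c * x * c⁻¹) * y * (c * x * c⁻¹)⁻¹) * (c * x * c⁻¹)⁻¹) *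
                  (c * x * c⁻¹) := h5.symm
              _ = (c * x * c⁻¹) * y * (c * x * c⁻¹)⁻¹ := by group
          rw [h4]
          exact hy'
      have hpz : IsPGroup r (Subgroup.zpowers (c * x * c⁻¹)) := by
        obtain ⟨k, hk⟩ := R.2 ⟨x, hx⟩
        have hk' : x ^ r ^ k = 1 := congrArg Subtype.val hk
        have h3 : (c * x * c⁻¹) ^ r ^ k = 1 := by rw [conj_pow, hk', mul_one, mul_inv_cancel]
        have h4 := orderOf_dvd_of_pow_eq_one h3
        obtain ⟨j, -, hj⟩ := (Nat.dvd_prime_pow hr.out).1 h4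
        exact IsPGroup.of_card (n := j) (by rw [Nat.card_zpowers, hj])
      have h5 := hpz.to_sup_of_normal_right' R.2 hle
      have h6 := R.3 h5 le_sup_right
      have h7 : c * x * c⁻¹ ∈ (Subgroup.zpowers (c * x * c⁻¹) ⊔ (R : Subgroup G) : Subgroup G) :=
        Subgroup.mem_sup_left (Subgroup.mem_zpowers _)
      rwa [h6] at h7
    refine Subgroup.mem_normalizer_iff.2 fun x => ⟨fun hx => key b (fun y hy => (hb' y).1 hy) x hx, fun hx => ?_⟩
    have h1 : b * x * b⁻¹ ∈ (R : Subgroup G) := hx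
    have h2 := key b⁻¹ (fun y hy => by
      rw [hb' (b⁻¹ * y * b⁻¹⁻¹)]
      have : b * (b⁻¹ * y * b⁻¹⁻¹) * b⁻¹ = y := by group
      rw [this]
      exact hy) _ h1
    have h3 : b⁻¹ * (b * x * b⁻¹) * b⁻¹⁻¹ = x := by group
    rwa [h3] at h2
  · intro b hb
    have hb' := Subgroup.mem_normalizer_iff.1 hb
    rw [hT]
    refine Subgroup.mem_normalizer_iff.2 fun y => ?_
    show y ∈ Subgroup.centralizer ((R : Subgroup G) : Set G) ↔
      b * y * b⁻¹ ∈ Subgroup.centralizer ((R : Subgroup G) : Set G)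
    rw [Subgroup.mem_centralizer_iff, Subgroup.mem_centralizer_iff]
    constructor
    · intro h x hx
      have h1 : b⁻¹ * x * b ∈ (R : Subgroup G) := by
        rw [hb' (b⁻¹ * x * b)]
        have : b * (b⁻¹ * x * b) * b⁻¹ = x := by group
        rw [this]
        exact hx
      have h2 := h _ h1
      calc x * (b * y * b⁻¹) = b * (b⁻¹ * x * b * y) * b⁻¹ := by group
        _ = b * (y * (b⁻¹ * x * b)) * b⁻¹ := by rw [h2]
        _ = b * y * b⁻¹ * x := by group
    · intro h x hx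
      have h1 : b * x * b⁻¹ ∈ (R : Subgroup G) := (hb' x).1 hx
      have h2 := h _ h1
      calc x * y = b⁻¹ * (b * x * b⁻¹ * (b * y * b⁻¹)) * b := by group
        _ = b⁻¹ * (b * y * b⁻¹ * (b * x * b⁻¹)) * b := by rw [h2]
        _ = y * x := by group

/-- the congruence modulo `r`, if no `p`-element `≠ 1` commutes with the `r`-group `R` -/
theorem dvd_of_kaw [Finite G] {χ : G → ℂ} (hχ : IsIrrCharacter G χ) {p r m : ℕ} {e : ℤ} (hr : r.Prime)
    {R : Subgroup G} (hR : IsPGroup r R) (hfix : ∀ v ∈ Subgroup.centralizer (R : Set G), v ∈ pSet p G → v = 1)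
    (hs : ∑ᶠ u ∈ pSet p G, χ u = (e : ℂ) * (p : ℂ) ^ m * χ 1) (hd : ¬ r ∣ charDegree χ) :
    (r : ℤ) ∣ e * (p : ℤ) ^ m - 1 := by
  classical
  have := Fintype.ofFinite G
  have : Fact r.Prime := ⟨hr⟩
  let χ' : IrrCharacter G := ⟨χ, hχ⟩
  have hmem : ∀ g x : G, g * x * g⁻¹ ∈ pSet p G ↔ x ∈ pSet p G := by
    intro g x
    have h1 : orderOf (g * x * g⁻¹) = orderOf x := orderOf_injective (MulAut.conj g).toMonoidHom
      (MulAut.conj g).injective x
    unfold pSet
    rw [Set.mem_ofPred_eq, Set.mem_ofPred_eq, h1]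
  obtain ⟨a, ha⟩ := Cfsg.Agent.Blocks.OrbitSum.sum_eq_sum_centralizer_add_smul (p := r) R hR
    (fun g => if g ∈ pSet p G then av χ' g else 0) (fun u _ x => by
      simp only [hmem u x]
      split_ifs
      · exact Subtype.ext (Core.isIrr_isClassFunction hχ x u)
      · rfl)
  have h1 : ∑ x ∈ univ.filter (· ∈ Subgroup.centralizer (R : Set G)), (if x ∈ pSet p G then av χ' x else 0) =
      av χ' 1 := by
    rw [Finset.sum_eq_single_of_mem 1 (by simp)]
    · rw [if_pos ⟨0, by simp⟩]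
    · intro b hb hb1
      rw [if_neg]
      exact fun h => hb1 (hfix b (mem_filter.1 hb).2 h)
  rw [h1] at ha
  have h2 : ((∑ x, (if x ∈ pSet p G then av χ' x else 0) : AlgInt) : ℂ) = ∑ᶠ u ∈ pSet p G, χ u := by
    rw [H730.OZ.finsum_pSet, Finset.sum_filter]
    rw [AddSubmonoidClass.coe_finsetSum]
    refine Finset.sum_congr rfl fun x _ => ?_
    split_ifs <;> rfl
  have h3 := congrArg (fun z : AlgInt => (z : ℂ)) ha
  beta_reduce at h3
  rw [h2, hs] at h3
  have h4 : ((av χ' 1 + r • a : AlgInt) : ℂ) = χ 1 + r * (a : ℂ) := by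
    rw [nsmul_eq_mul]
    rfl
  have h7 : χ 1 = (charDegree χ : ℂ) := (charDegree_irr χ').symm
  rw [h4, h7] at h3
  have h5 : (((e * (p : ℤ) ^ m - 1) * (charDegree χ : ℤ) : ℤ) : ℂ) = r * (a : ℂ) := by
    push_cast
    linear_combination h3
  have hr0 : (r : ℂ) ≠ 0 := Nat.cast_ne_zero.2 hr.ne_zero
  obtain ⟨k, hk⟩ := GaloisBasic.exists_int_of_isIntegral (z := (a : ℂ)) a.2
    ⟨((e * (p : ℤ) ^ m - 1) * (charDegree χ : ℤ) : ℤ) / (r : ℚ), by
      push_cast
      rw [eq_div_iff hr0, mul_comm]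
      push_cast at h5
      exact h5.symm⟩
  have h6 : (r : ℤ) ∣ (e * (p : ℤ) ^ m - 1) * (charDegree χ : ℤ) := by
    refine ⟨k, ?_⟩
    rw [hk] at h5
    exact_mod_cast h5
  rcases (Nat.prime_iff_prime_int.1 hr).dvd_or_dvd h6 with h8 | h8
  · exact h8
  · exact absurd (Int.natCast_dvd_natCast.1 h8) hd

/-- **The congruence from a large torus.** `R` a Sylow `r`-subgroup, `T = C_G(R) ≥ R` without `p`-elements. -/
theorem cong_of_torus [Finite G] {p r : ℕ} [hr : Fact r.Prime] (R : Sylow r G) {T : Subgroup G}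
    (hT : T = Subgroup.centralizer ((R : Subgroup G) : Set G)) (hRT : (R : Subgroup G) ≤ T)
    (hp : ∀ v ∈ T, v ∈ pSet p G → v = 1) {w n : ℕ}
    (hw : Nat.card (Subgroup.normalizer (T : Set G)) = w * Nat.card T) (hn : n ≤ Nat.card (Tst T))
    (h1 : r ^ 2 * w < (r ^ 2 - 1) * n) (h2 : w * Nat.card T < (r ^ 2 - 1) * n) : Cong p r 0 G := by
  intro χ hχ h0 m e _ hs
  obtain ⟨x, hx0, hx⟩ := h0
  have h3 : One (⟨χ, hχ⟩ : IrrCharacter G) x := ⟨hx0, fun g hg => hx g hg⟩
  have h4 := not_dvd_of_torus h3 hr.out (not_dvd_index R hRT) hw (c := 1) Nat.card_pos hn h1 (by rw [mul_one]; exact h2)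
  rw [pow_zero]
  exact dvd_of_kaw hχ hr.out R.2 (fun v hv hvp => hp v (hT ▸ hv) hvp) hs h4

end Cfsg.Agent.H956.OZ.Loc
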